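import Mathlib
import Cfsg.Agent.Base
import Cfsg.Agent.Lib.Thompson.Stable
import Cfsg.Agent.Lib.LocStruct.Conj

/-!
The affine group `Qd(F)` over an arbitrary field.
-/

set_option autoImplicit false

namespace H59.QdF

open Subgroup Cfsg H69
open scoped MatrixGroups

variable {F : Type*} [Field F]

theorem mem_qdOver_iff (M : SL(3, F)) :
    M ∈ qdOver F ↔ M.1 2 0 = 0 ∧ M.1 2 1 = 0 ∧ M.1 2 2 = 1 := by
  refine ⟨fun h => ?_, fun h => Subgroup.subset_closure h⟩
  let S : Subgroup SL(3, F) :=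
    { carrier := {M | M.1 2 0 = 0 ∧ M.1 2 1 = 0 ∧ M.1 2 2 = 1}
      one_mem' := by simp
      mul_mem' := by
        rintro A B ⟨a0, a1, a2⟩ ⟨b0, b1, b2⟩
        simp [Matrix.mul_apply, Fin.sum_univ_three, a0, a1, a2, b0, b1, b2]
      inv_mem' := by
        rintro A ⟨a0, a1, a2⟩
        have h : ∀ j, (A * A⁻¹).1 2 j = (A⁻¹).1 2 j := fun j => by
          rw [Matrix.SpecialLinearGroup.coe_mul, Matrix.mul_apply, Fin.sum_univ_three, a0, a1, a2]
          simp
        rw [mul_inv_cancel] at h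
        exact ⟨by rw [← h]; simp, by rw [← h]; simp, by rw [← h]; simp⟩ }
  exact (Subgroup.closure_le S).mpr (fun _ hM => hM) h

/-- The affine map with linear part `(a b; c d)` and translation part `(x, y)`. -/
def aff (a b c d x y : F) (h : a * d - b * c = 1) : qdOver F :=
  ⟨⟨!![a, b, x; c, d, y; 0, 0, 1], by simp [Matrix.det_fin_three, h]⟩,
    (mem_qdOver_iff _).mpr (by simp)⟩

theorem aff_inj {a b c d x y a' b' c' d' x' y' : F} {h : a * d - b * c = 1}
    {h' : a' * d' - b' * c' = 1} :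
    aff a b c d x y h = aff a' b' c' d' x' y' h' ↔
      a = a' ∧ b = b' ∧ c = c' ∧ d = d' ∧ x = x' ∧ y = y' := by
  constructor
  · intro e
    have e' : (!![a, b, x; c, d, y; 0, 0, 1] : Matrix (Fin 3) (Fin 3) F) =
        !![a', b', x'; c', d', y'; 0, 0, 1] := congrArg (fun g : qdOver F => g.1.1) e
    have := fun i j => congrFun (congrFun e' i) j
    exact ⟨this 0 0, this 0 1, this 1 0, this 1 1, this 0 2, this 1 2⟩
  · rintro ⟨rfl, rfl, rfl, rfl, rfl, rfl⟩; rfl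

theorem aff_mul {a b c d x y a' b' c' d' x' y' : F} (h : a * d - b * c = 1)
    (h' : a' * d' - b' * c' = 1) :
    aff a b c d x y h * aff a' b' c' d' x' y' h' =
      aff (a * a' + b * c') (a * b' + b * d') (c * a' + d * c') (c * b' + d * d')
        (a * x' + b * y' + x) (c * x' + d * y' + y)
        (by linear_combination (a' * d' - b' * c') * h + h') := by
  apply Subtype.ext; apply Subtype.ext
  change (!![a, b, x; c, d, y; 0, 0, 1] : Matrix (Fin 3) (Fin 3) F) *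
    !![a', b', x'; c', d', y'; 0, 0, 1] = !![_, _, _; _, _, _; 0, 0, 1]
  simp [add_assoc]

theorem one_eq_aff : (1 : qdOver F) = aff 1 0 0 1 0 0 (by simp) := by
  apply Subtype.ext; apply Subtype.ext
  change (1 : Matrix (Fin 3) (Fin 3) F) = !![_, _, _; _, _, _; 0, 0, 1]
  exact Matrix.one_fin_three

theorem exists_aff (g : qdOver F) : ∃ a b c d x y h, g = aff a b c d x y h := by
  obtain ⟨⟨M, hM⟩, hq⟩ := g
  obtain ⟨h0, h1, h2⟩ := (mem_qdOver_iff _).mp hq
  simp only at h0 h1 h2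
  refine ⟨M 0 0, M 0 1, M 1 0, M 1 1, M 0 2, M 1 2, ?_, ?_⟩
  · rw [Matrix.det_fin_three, h0, h1, h2] at hM
    linear_combination hM
  · apply Subtype.ext; apply Subtype.ext
    change M = !![_, _, _; _, _, _; 0, 0, 1]
    rw [← h0, ← h2]
    conv_lhs => rw [Matrix.eta_fin_three M]
    rw [h1, h0]

/-- Translations. -/
def tr (x y : F) : qdOver F := aff 1 0 0 1 x y (by simp)

theorem tr_mul (x y x' y' : F) : tr x y * tr x' y' = tr (x + x') (y + y') := by
  simp only [tr, aff_mul, aff_inj]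
  refine ⟨?_, ?_, ?_, ?_, ?_, ?_⟩ <;> ring

theorem tr_zero : tr (0 : F) 0 = 1 := one_eq_aff.symm

theorem tr_pow (x y : F) (n : ℕ) : tr x y ^ n = tr ((n : F) * x) ((n : F) * y) := by
  induction n with
  | zero => simp [tr_zero]
  | succ n ih => rw [pow_succ, ih, tr_mul]; congr 1 <;> push_cast <;> ring

theorem conj_tr {a b c d x y : F} (h : a * d - b * c = 1) (u v : F) :
    aff a b c d x y h * tr u v * (aff a b c d x y h)⁻¹ = tr (a * u + b * v) (c * u + d * v) := by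
  rw [mul_inv_eq_iff_eq_mul]
  simp only [tr, aff_mul, aff_inj]
  refine ⟨?_, ?_, ?_, ?_, ?_, ?_⟩ <;> ring

theorem aff_00 {a b c d x y : F} (h : a * d - b * c = 1) : (aff a b c d x y h).1.1 0 0 = a := rfl
theorem aff_01 {a b c d x y : F} (h : a * d - b * c = 1) : (aff a b c d x y h).1.1 0 1 = b := rfl
theorem aff_10 {a b c d x y : F} (h : a * d - b * c = 1) : (aff a b c d x y h).1.1 1 0 = c := rfl
theorem aff_11 {a b c d x y : F} (h : a * d - b * c = 1) : (aff a b c d x y h).1.1 1 1 = d := rfl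
theorem aff_02 {a b c d x y : F} (h : a * d - b * c = 1) : (aff a b c d x y h).1.1 0 2 = x := rfl
theorem aff_12 {a b c d x y : F} (h : a * d - b * c = 1) : (aff a b c d x y h).1.1 1 2 = y := rfl

theorem det_lin (g : qdOver F) : g.1.1 0 0 * g.1.1 1 1 - g.1.1 0 1 * g.1.1 1 0 = 1 := by
  obtain ⟨a, b, c, d, x, y, h, rfl⟩ := exists_aff g
  rw [aff_00, aff_01, aff_10, aff_11, h]

/-- The linear part, as a function. -/
def linFun (g : qdOver F) : SL(2, F) :=
  H64.SL2.mk (g.1.1 0 0) (g.1.1 0 1) (g.1.1 1 0) (g.1.1 1 1) (det_lin g)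

theorem linFun_aff {a b c d x y : F} (h : a * d - b * c = 1) :
    linFun (aff a b c d x y h) = H64.SL2.mk a b c d h := rfl

/-- The linear part. -/
def lin (F : Type*) [Field F] : qdOver F →* SL(2, F) where
  toFun := linFun
  map_one' := by rw [one_eq_aff, linFun_aff]; exact H64.SL2.ext' rfl rfl rfl rfl
  map_mul' g g' := by
    obtain ⟨a, b, c, d, x, y, h, rfl⟩ := exists_aff g
    obtain ⟨a', b', c', d', x', y', h', rfl⟩ := exists_aff g'
    rw [aff_mul, linFun_aff, linFun_aff, linFun_aff]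
    refine H64.SL2.ext' ?_ ?_ ?_ ?_ <;>
      simp only [H64.SL2.mul_apply', H64.SL2.mk_00, H64.SL2.mk_01, H64.SL2.mk_10, H64.SL2.mk_11]

/-- The block embedding. -/
def blk (F : Type*) [Field F] : SL(2, F) →* qdOver F where
  toFun g := aff (g 0 0) (g 0 1) (g 1 0) (g 1 1) 0 0 (H64.SL2.det_eq g)
  map_one' := by rw [one_eq_aff, aff_inj]; simp
  map_mul' g h := by
    rw [aff_mul, aff_inj]
    simp only [H64.SL2.mul_apply']
    simp

theorem lin_blk (g : SL(2, F)) : lin F (blk F g) = g := H64.SL2.ext' rfl rfl rfl rfl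

theorem lin_surjective : Function.Surjective (lin F) := fun g => ⟨_, lin_blk g⟩

theorem blk_injective : Function.Injective (blk F) :=
  Function.LeftInverse.injective lin_blk

theorem mem_ker_lin_iff {g : qdOver F} : g ∈ (lin F).ker ↔
    g.1.1 0 0 = 1 ∧ g.1.1 0 1 = 0 ∧ g.1.1 1 0 = 0 ∧ g.1.1 1 1 = 1 := by
  rw [MonoidHom.mem_ker, H64.SL2.ext_iff']; rfl

theorem mem_ker_lin {g : qdOver F} : g ∈ (lin F).ker ↔ ∃ x y, g = tr x y := by
  rw [mem_ker_lin_iff]
  obtain ⟨a, b, c, d, x, y, h, rfl⟩ := exists_aff g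
  constructor
  · rintro ⟨h1, h2, h3, h4⟩
    exact ⟨x, y, aff_inj.2 ⟨h1, h2, h3, h4, rfl, rfl⟩⟩
  · rintro ⟨x', y', e⟩
    obtain ⟨h1, h2, h3, h4, -⟩ := aff_inj.1 e
    exact ⟨h1, h2, h3, h4⟩

theorem mem_range_blk {g : qdOver F} : g ∈ (blk F).range ↔ g.1.1 0 2 = 0 ∧ g.1.1 1 2 = 0 := by
  constructor
  · rintro ⟨w, rfl⟩; exact ⟨rfl, rfl⟩
  · obtain ⟨a, b, c, d, x, y, h, rfl⟩ := exists_aff g
    rintro ⟨h1, h2⟩
    rw [aff_02] at h1
    rw [aff_12] at h2
    subst h1 h2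
    exact ⟨H64.SL2.mk a b c d h, rfl⟩

theorem pCore_eq (p : ℕ) [Fact p.Prime] [CharP F p] : pCore p (qdOver F) = (lin F).ker := by
  have h1 : IsPGroup p (lin F).ker := isPGroup_iff_mem.2 fun g hg => ⟨1, by
    obtain ⟨x, y, rfl⟩ := mem_ker_lin.1 hg
    rw [pow_one, tr_pow, CharP.cast_eq_zero, zero_mul, zero_mul, tr_zero]⟩
  have h2 : pCore p SL(2, F) = ⊥ := by
    rw [← H1.map_pCore_equiv (Subgroup.topEquiv (G := SL(2, F))),
      H24.pCore_eq_bot_of_upT_loT p one_ne_zero one_ne_zero (mem_top _) (mem_top _),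
      Subgroup.map_bot]
  rw [← H1.comap_pCore_of_ker lin_surjective h1, h2, MonoidHom.comap_bot]

/-- Coordinates on the translation subgroup. -/
def coord (F : Type*) [Field F] : Additive (lin F).ker ≃+ (Fin 2 → F) where
  toFun v := ![(v.toMul : qdOver F).1.1 0 2, (v.toMul : qdOver F).1.1 1 2]
  invFun w := Additive.ofMul ⟨tr (w 0) (w 1), mem_ker_lin.2 ⟨_, _, rfl⟩⟩
  left_inv v := by
    obtain ⟨⟨g, hg⟩, rfl⟩ := Additive.ofMul.surjective v
    obtain ⟨x, y, rfl⟩ := mem_ker_lin.1 hg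
    rfl
  right_inv w := by
    ext i; fin_cases i <;> rfl
  map_add' u v := by
    obtain ⟨⟨g, hg⟩, rfl⟩ := Additive.ofMul.surjective u
    obtain ⟨⟨g', hg'⟩, rfl⟩ := Additive.ofMul.surjective v
    obtain ⟨x, y, rfl⟩ := mem_ker_lin.1 hg
    obtain ⟨x', y', rfl⟩ := mem_ker_lin.1 hg'
    change ![(tr x y * tr x' y').1.1 0 2, (tr x y * tr x' y').1.1 1 2] = _
    rw [tr_mul]
    ext i; fin_cases i <;> rfl

theorem isNaturalSL2Module : IsNaturalSL2Module F (lin F).ker (blk F).range := by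
  refine ⟨le_top.trans (normal_iff_top_le_normalizer.1 inferInstance),
    (lin F).comp (blk F).range.subtype, coord F, fun g => ⟨⟨_, g, rfl⟩, lin_blk g⟩, ?_, ?_⟩
  · ext ⟨_, g, rfl⟩
    rw [mem_subgroupOf, MonoidHom.mem_ker, MonoidHom.comp_apply]
    change lin F (blk F g) = 1 ↔ blk F g ∈ _
    rw [lin_blk]
    refine ⟨fun h => by rw [h, map_one]; exact one_mem _, fun h => ?_⟩
    have h1 := aff_inj.1 ((conj_tr (H64.SL2.det_eq g) 1 0).symm.trans
      (conj_eq_of_mem_centralizer h (mem_ker_lin.2 ⟨1, 0, rfl⟩)))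
    have h2 := aff_inj.1 ((conj_tr (H64.SL2.det_eq g) 0 1).symm.trans
      (conj_eq_of_mem_centralizer h (mem_ker_lin.2 ⟨0, 1, rfl⟩)))
    refine H64.SL2.ext' ?_ ?_ ?_ ?_
    · simpa using h1.2.2.2.2.1
    · simpa using h2.2.2.2.2.1
    · simpa using h1.2.2.2.2.2
    · simpa using h2.2.2.2.2.2
  · rintro ⟨_, g, rfl⟩ ⟨v, hv⟩
    obtain ⟨x, y, rfl⟩ := mem_ker_lin.1 hv
    refine ⟨⟨tr (g 0 0 * x + g 0 1 * y) (g 1 0 * x + g 1 1 * y), mem_ker_lin.2 ⟨_, _, rfl⟩⟩,
      (conj_tr (H64.SL2.det_eq g) _ _).symm, ?_⟩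
    change ![g 0 0 * x + g 0 1 * y, g 1 0 * x + g 1 1 * y] =
      Matrix.mulVec (lin F (blk F g)).1 ![x, y]
    rw [lin_blk]
    ext i; fin_cases i <;> simp [Matrix.mulVec, dotProduct, Fin.sum_univ_two]

end H59.QdF
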